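import Cfsg.Agent.L0.CosetChain

/-! Generated coset table certificate. -/

set_option autoImplicit false
set_option maxRecDepth 100000

open Cfsg.Agent.L0

namespace Cfsg.Agent.H3.O8.Tc5

noncomputable def t0 : BT := .leaf (nat_lit 0xb600000000005b00000000128047c7a00000000001280000000074010a1920000000000040000000000c02de010000000000084000000002100000)

noncomputable def tree : BT := t0

noncomputable def row : ℕ → ℕ := rowOf tree (nat_lit 3) (nat_lit 7) (nat_lit 118) (nat_lit 0x3fffffffffffffffffffffffffffff)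

noncomputable def cols : List Col := [⟨nat_lit 20, nat_lit 1, [([nat_lit 62], nat_lit 0), ([nat_lit 20, nat_lit 20], nat_lit 0)]⟩,
  ⟨nat_lit 62, nat_lit 1, [([nat_lit 20], nat_lit 0)]⟩,
  ⟨nat_lit 111, nat_lit 0, [([nat_lit 111], nat_lit 0), ([nat_lit 20, nat_lit 111, nat_lit 20, nat_lit 111, nat_lit 20], nat_lit 0)]⟩]

noncomputable def erots : List (List ℕ × ℕ) := []

noncomputable def gens : List ℕ := [nat_lit 20, nat_lit 62, nat_lit 111]

noncomputable def chk : ℕ → Bool := chkRow0 row (nat_lit 4) (nat_lit 0x7) (nat_lit 0x18) (nat_lit 5) (nat_lit 0x3) (nat_lit 0) (nat_lit 0x7) (nat_lit 3) (nat_lit 0xff) (nat_lit 0x1800) [] cols gens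

theorem b0 : allR chk 2 0 = true := by decide +kernel

noncomputable def T : CT := ⟨row, nat_lit 4, nat_lit 4, nat_lit 0x7, nat_lit 0x18, nat_lit 5, nat_lit 0x3, nat_lit 0, nat_lit 0x7, nat_lit 3, nat_lit 0xff, nat_lit 0x1800, nat_lit 118, nat_lit 118, nat_lit 0, nat_lit 6, [], cols, erots, gens⟩

theorem all : ∀ c < 4, chk c = true := fun c hc =>
  allR_glue (d := 2) (n := 1) (forall_lt_succ' forall_lt_zero' b0) c (lt_of_lt_of_le hc (by norm_num))

/-- the relators used -/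
def R : List (List ℕ) := [[nat_lit 1, nat_lit 7],
  [nat_lit 14, nat_lit 14],
  [nat_lit 1, nat_lit 1, nat_lit 1],
  [nat_lit 14, nat_lit 1, nat_lit 14, nat_lit 1, nat_lit 14, nat_lit 1]]

theorem cert : Cert T (R.map fun r => (r, 0)) ([1, 7].map fun y => (y, 0)) 13 7 [1, 7, 14] :=
  ⟨by decide +kernel, ⟨[[(0, 0), (2, 0)], [(0, 1)], [(1, 0), (3, 0)]], [], by decide +kernel⟩, by decide +kernel, Or.inl ⟨rfl, all⟩⟩

theorem bound {Γ : Type*} [Group Γ] {x : ℕ → Γ} (hR : ∀ r ∈ R, ev x r = 1) {n : ℕ}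
    (h : CardLe x [1, 7] n) : CardLe x [1, 7, 14] (4 * n) :=
  cert.cardLe rfl hR h

end Cfsg.Agent.H3.O8.Tc5
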