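import Cfsg.Agent.H3.Core2
import Cfsg.Agent.H3.Mu.O8.Core
import Cfsg.Agent.H3.Mu.O8.L0
import Cfsg.Agent.H3.Mu.O8.L1
import Cfsg.Agent.H3.Mu.O8.P2
import Cfsg.Agent.H3.Mu.O8.P3
import Cfsg.Agent.H3.Mu.O8.P5

/-! The Schur multiplier. -/

set_option autoImplicit false
set_option maxRecDepth 100000

open Cfsg.Agent.L0

namespace Cfsg.Agent.H3.O8


theorem schur {G : Type*} [Group G] (hm : Model G 120 6 T Bf) :
    Finite G ∧ Nat.card G = 174182400 ∧ HasSchurMultiplier G (Multiplicative (ZMod 2 × ZMod 2)) := by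
  obtain ⟨A, x, h⟩ := core' hm
  haveI := h.fin
  have h2 := P2.pm h.base h.tab h.card
  have h3 := P3.pm h.base h.tab h.card
  have hr := pmult_rest h.card [5] (List.forall_mem_cons.mpr ⟨P5.pm h.base h.tab h.card, (by simp)⟩) (by decide +kernel) (by decide +kernel)
  exact ⟨h.fin, h.card, hasSchur_of (lower_two' h.pres L0rep L1rep
    [(220368, 7), (13773, 8), (79701, 10), (148765, 11), (-55092, 12), (9018, 13), (164546, 14), (119202, 15), (-9022, 16), (-55092, 18), (-482, 20), (159, 21), (-52708, 23), (82273, 25), (-82273, 26), (50150, 27), (-2846, 28), (98, 29), (2572, 30), (-79413, 31), (-313, 33), (-7, 34), (17, 36), (-4, 37), (-4, 39), (-73, 40), (-110184, 41), (-119200, 42), (6462, 43), (-18036, 44), (-16, 45), (14, 46), (-2198, 47), (2, 48), (-1, 50)]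
    [(-12, 7), (-6, 11), (3, 12), (-6, 15), (4, 18), (6, 41), (6, 42)]
    (by decide +kernel) (by decide +kernel) (by decide +kernel))
    (upper_two_two h2 h3 hr)⟩

end Cfsg.Agent.H3.O8
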